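import Cfsg.Agent.Recog.PermChain

/-!
A kernel checker for stabiliser chains of permutation groups on at most 128 points, the
permutations being given as packed tables of images (8 bits for each point).
-/

set_option autoImplicit false

namespace Cfsg.Agent.J2

/-- The image of `x` under a packed table. -/
def look (w x : ℕ) : ℕ := Nat.mod (Nat.shiftRight w (Nat.mul 8 x)) 256

/-- A table with a table for the inverse. -/
abbrev Tab : Type := ℕ × ℕ

/-- The check that a pair of tables describes a permutation of `N` points. -/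
def isTab (N : ℕ) (t : Tab) : Bool :=
  (List.range N).all fun x =>
    Nat.blt (look t.1 x) N && Nat.blt (look t.2 x) N &&
      Nat.beq (look t.2 (look t.1 x)) x && Nat.beq (look t.1 (look t.2 x)) x

theorem isTab_spec {N : ℕ} {t : Tab} (h : isTab N t = true) {x : ℕ} (hx : x < N) :
    look t.1 x < N ∧ look t.2 x < N ∧ look t.2 (look t.1 x) = x ∧ look t.1 (look t.2 x) = x := by
  have := List.all_eq_true.mp h x (List.mem_range.mpr hx)
  simp only [Bool.and_eq_true, Nat.blt_eq, Nat.beq_eq] at this
  exact ⟨this.1.1.1, this.1.1.2, this.1.2, this.2⟩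

variable {N : ℕ}

/-- The permutation described by a table. -/
def tabPerm (N : ℕ) (t : Tab) : Equiv.Perm (Fin N) :=
  if h : isTab N t = true then
    { toFun := fun x => ⟨look t.1 x, (isTab_spec h x.2).1⟩
      invFun := fun x => ⟨look t.2 x, (isTab_spec h x.2).2.1⟩
      left_inv := fun x => Fin.ext (isTab_spec h x.2).2.2.1
      right_inv := fun x => Fin.ext (isTab_spec h x.2).2.2.2 }
  else 1

theorem tabPerm_apply {t : Tab} (h : isTab N t = true) (x : Fin N) :
    (tabPerm N t x : ℕ) = look t.1 x := by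
  rw [tabPerm, dif_pos h]
  rfl

/-- A level of a stabiliser chain. -/
structure Lvl where
  /-- base point -/
  base : ℕ
  /-- new strong generators -/
  new : List Tab
  /-- transversal -/
  trans : List Tab
  /-- spanning tree: generator and parent -/
  tree : List (ℕ × ℕ)
  /-- Schreier certificates -/
  cl : List (List ℕ)

/-- The identity table. -/
def idTab (N : ℕ) : Tab :=
  let w := (List.range N).foldr (fun x acc => x * 256 ^ x + acc) 0
  (w, w)

/-- The strong generators of a chain. -/
def gensOf : List Lvl → List Tab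
  | [] => []
  | L :: rest => L.new ++ gensOf rest

/-- The image of `x` under a product of transversal elements of the levels. -/
def app : List Lvl → List ℕ → ℕ → ℕ
  | L :: rest, i :: is, x =>
    match L.trans[i]? with
    | some t => look t.1 (app rest is x)
    | none => app rest is x
  | _, _, x => x

/-- All the checks for one level. -/
def levelOK (N : ℕ) (L : Lvl) (rest : List Lvl) : Bool :=
  let S := L.new ++ gensOf rest
  let n := L.trans.length
  Nat.blt L.base N &&
  L.new.all (isTab N) && L.trans.all (isTab N) && Nat.blt 0 n &&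
  (List.range n).all (fun i =>
    match L.trans[i]?, L.tree[i]? with
    | some t, some (g, j) =>
      bif Nat.beq i 0 then (List.range N).all fun x => Nat.beq (look t.1 x) x
      else Nat.blt j i &&
        match S[g]?, L.trans[j]? with
        | some s, some u => (List.range N).all fun x => Nat.beq (look t.1 x) (look s.1 (look u.1 x))
        | _, _ => false
    | _, _ => false) &&
  (List.range n).all (fun i => (List.range i).all fun j =>
    match L.trans[i]?, L.trans[j]? with
    | some t, some u => !(Nat.beq (look t.1 L.base) (look u.1 L.base))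
    | _, _ => false) &&
  (gensOf rest).all (fun s => Nat.beq (look s.1 L.base) L.base) &&
  (List.range S.length).all (fun g => (List.range n).all fun i =>
    match S[g]?, L.trans[i]?, L.cl[g * n + i]? with
    | some s, some t, some (j :: is) =>
      match L.trans[j]? with
      | some u => (List.range N).all fun x =>
          Nat.beq (look s.1 (look t.1 x)) (look u.1 (app rest is x))
      | none => false
    | _, _, _ => false)

/-- All the checks for a chain. -/
def chainOK (N : ℕ) : List Lvl → Bool
  | [] => true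
  | L :: rest => levelOK N L rest && chainOK N rest

/-- The group generated by the strong generators. -/
def chainGroup (N : ℕ) (Ls : List Lvl) : Subgroup (Equiv.Perm (Fin N)) :=
  Subgroup.closure {p | p ∈ (gensOf Ls).map (tabPerm N)}

theorem chainGroup_cons_le (L : Lvl) (rest : List Lvl) :
    chainGroup N rest ≤ chainGroup N (L :: rest) :=
  Subgroup.closure_mono fun p hp => by
    simp only [Set.mem_setOf_eq, gensOf, List.map_append, List.mem_append] at hp ⊢
    exact Or.inr hp

theorem chainGroup_nil : chainGroup N [] = ⊥ := by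
  simp [chainGroup, gensOf]

theorem gensOf_isTab : ∀ {Ls : List Lvl}, chainOK N Ls = true → ∀ s ∈ gensOf Ls, isTab N s = true
  | [], _, s, hs => by simp [gensOf] at hs
  | L :: rest, h, s, hs => by
    rw [chainOK, Bool.and_eq_true] at h
    rw [gensOf, List.mem_append] at hs
    rcases hs with hs | hs
    · have h1 := h.1
      simp only [levelOK, Bool.and_eq_true] at h1
      exact List.all_eq_true.mp h1.1.1.1.1.1.1.2 s hs
    · exact gensOf_isTab h.2 s hs

/-- The content of the checks for one level. -/
theorem levelOK_spec {L : Lvl} {rest : List Lvl} (h : levelOK N L rest = true)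
    (hrest : ∀ is, ∃ k ∈ chainGroup N rest, ∀ x : Fin N, (k x : ℕ) = app rest is x)
    (hgens : ∀ s ∈ gensOf (L :: rest), isTab N s = true) :
    ∃ hb : L.base < N,
      Nat.card (chainGroup N (L :: rest)) = L.trans.length * Nat.card (chainGroup N rest) ∧
      (∀ g ∈ chainGroup N (L :: rest), (g ⟨L.base, hb⟩ = ⟨L.base, hb⟩ ↔ g ∈ chainGroup N rest)) ∧
      (∀ is, ∃ k ∈ chainGroup N (L :: rest), ∀ x : Fin N, (k x : ℕ) = app (L :: rest) is x) ∧
      (∀ t ∈ L.trans, ∃ g ∈ chainGroup N (L :: rest), (g ⟨L.base, hb⟩ : ℕ) = look t.1 L.base) := by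
  simp only [levelOK, Bool.and_eq_true] at h
  obtain ⟨⟨⟨⟨⟨⟨⟨hb, -⟩, hT⟩, hn⟩, htree⟩, hdist⟩, hfix⟩, hcl⟩ := h
  rw [Nat.blt_eq] at hb hn
  let S := L.new ++ gensOf rest
  let Sf : Fin S.length → Equiv.Perm (Fin N) := fun g => tabPerm N S[g]
  let Tf : Fin L.trans.length → Equiv.Perm (Fin N) := fun i => tabPerm N L.trans[i]
  have hS : ∀ g : Fin S.length, isTab N S[g] = true := fun g =>
    hgens _ (List.getElem_mem g.2)
  have hTt : ∀ i : Fin L.trans.length, isTab N L.trans[i] = true := fun i =>
    List.all_eq_true.mp hT _ (List.getElem_mem i.2)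
  have hgroup : chainGroup N (L :: rest) = Subgroup.closure (Set.range Sf) := by
    rw [chainGroup]
    congr 1
    ext p
    simp only [Set.mem_setOf_eq, List.mem_map, gensOf, Set.mem_range]
    constructor
    · rintro ⟨s, hs, rfl⟩
      obtain ⟨k, hk, rfl⟩ := List.getElem_of_mem hs
      exact ⟨⟨k, hk⟩, rfl⟩
    · rintro ⟨g, rfl⟩
      exact ⟨_, List.getElem_mem g.2, rfl⟩
  have hTmem : ∀ i, Tf i ∈ Subgroup.closure (Set.range Sf) := by
    refine Cfsg.Agent.Recog.PermChain.transversal_mem fun i => ?_
    have h1 := List.all_eq_true.mp htree i (List.mem_range.mpr i.2)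
    rw [List.getElem?_eq_getElem i.2] at h1
    rcases htr : L.tree[(i : ℕ)]? with - | ⟨g, j⟩
    · simp [htr] at h1
    simp only [htr] at h1
    by_cases hi : (i : ℕ) = 0
    · left
      refine ⟨hi, Equiv.ext fun x => Fin.ext ?_⟩
      rw [show Nat.beq (i : ℕ) 0 = true by rw [hi]; rfl, cond_true] at h1
      have h2 := List.all_eq_true.mp h1 x (List.mem_range.mpr x.2)
      rw [Nat.beq_eq] at h2
      rw [tabPerm_apply (hTt i)]
      exact h2
    · right
      rw [Bool.eq_false_iff.mpr fun e => hi (Nat.eq_of_beq_eq_true e), cond_false, Bool.and_eq_true, Nat.blt_eq] at h1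
      obtain ⟨hji, h1⟩ := h1
      rcases hs : (L.new ++ gensOf rest)[g]? with - | s
      · simp [hs] at h1
      rcases hu : L.trans[j]? with - | u
      · simp [hs, hu] at h1
      simp only [hs, hu] at h1
      obtain ⟨hg, hs'⟩ := List.getElem?_eq_some_iff.mp hs
      obtain ⟨hj, hu'⟩ := List.getElem?_eq_some_iff.mp hu
      refine ⟨⟨g, hg⟩, ⟨j, hj⟩, hji, fun x => Fin.ext ?_⟩
      have h2 := List.all_eq_true.mp h1 x (List.mem_range.mpr x.2)
      rw [Nat.beq_eq] at h2
      rw [Equiv.Perm.mul_apply, tabPerm_apply (hTt i), tabPerm_apply (hS _), tabPerm_apply (hTt _)]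
      show look L.trans[(i : ℕ)].1 x = look (L.new ++ gensOf rest)[g].1 (look L.trans[j].1 x)
      rw [h2, hs', hu']
  have hzero : Tf ⟨0, hn⟩ = 1 := by
    have h1 := List.all_eq_true.mp htree 0 (List.mem_range.mpr hn)
    rw [List.getElem?_eq_getElem hn] at h1
    rcases htr : L.tree[0]? with - | ⟨g, j⟩
    · simp [htr] at h1
    simp only [htr, show Nat.beq 0 0 = true from rfl, cond_true] at h1
    refine Equiv.ext fun x => Fin.ext ?_
    have h2 := List.all_eq_true.mp h1 x (List.mem_range.mpr x.2)
    rw [Nat.beq_eq] at h2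
    rw [tabPerm_apply (hTt ⟨0, hn⟩)]
    exact h2
  have hfixH : ∀ k ∈ chainGroup N rest, k ⟨L.base, hb⟩ = (⟨L.base, hb⟩ : Fin N) := by
    intro k hk
    rw [chainGroup] at hk
    refine Subgroup.closure_induction ?_ rfl (fun a b _ _ ha hb' => ?_) (fun a _ ha => ?_) hk
    · intro p hp
      simp only [Set.mem_setOf_eq, List.mem_map] at hp
      obtain ⟨s, hs, rfl⟩ := hp
      have h1 := List.all_eq_true.mp hfix s hs
      rw [Nat.beq_eq] at h1
      refine Fin.ext ?_
      rw [tabPerm_apply (hgens s (by rw [gensOf]; exact List.mem_append_right _ hs))]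
      exact h1
    · rw [Equiv.Perm.mul_apply, hb', ha]
    · conv_lhs => rw [← ha]
      exact a.symm_apply_apply _
  have hinj : ∀ i j, Tf i ⟨L.base, hb⟩ = Tf j ⟨L.base, hb⟩ → i = j := by
    have key : ∀ i j : Fin L.trans.length, (j : ℕ) < i →
        Tf i ⟨L.base, hb⟩ ≠ Tf j ⟨L.base, hb⟩ := by
      intro i j hji e
      have h1 := List.all_eq_true.mp (List.all_eq_true.mp hdist i (List.mem_range.mpr i.2)) j
        (List.mem_range.mpr hji)
      rw [List.getElem?_eq_getElem i.2, List.getElem?_eq_getElem j.2] at h1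
      have h2 := congrArg Fin.val e
      rw [tabPerm_apply (hTt i), tabPerm_apply (hTt j)] at h2
      simp only [Bool.not_eq_true', ← Bool.not_eq_true, Nat.beq_eq] at h1
      exact h1 h2
    intro i j e
    rcases lt_trichotomy (i : ℕ) j with h | h | h
    · exact absurd e.symm (key j i h)
    · exact Fin.ext h
    · exact absurd e (key i j h)
  have hclosed : ∀ g i, ∃ j, ∃ k ∈ chainGroup N rest, Sf g * Tf i = Tf j * k := by
    intro g i
    have h1 := List.all_eq_true.mp (List.all_eq_true.mp hcl g (List.mem_range.mpr g.2)) i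
      (List.mem_range.mpr i.2)
    rw [List.getElem?_eq_getElem g.2, List.getElem?_eq_getElem i.2] at h1
    rcases hc : L.cl[(g : ℕ) * L.trans.length + i]? with - | c
    · simp [hc] at h1
    rcases c with - | ⟨j, is⟩
    · simp [hc] at h1
    simp only [hc] at h1
    rcases hu : L.trans[j]? with - | u
    · simp [hu] at h1
    simp only [hu] at h1
    obtain ⟨hj, hu'⟩ := List.getElem?_eq_some_iff.mp hu
    obtain ⟨k, hk, hkx⟩ := hrest is
    refine ⟨⟨j, hj⟩, k, hk, Equiv.ext fun x => Fin.ext ?_⟩
    have h2 := List.all_eq_true.mp h1 x (List.mem_range.mpr x.2)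
    rw [Nat.beq_eq] at h2
    rw [Equiv.Perm.mul_apply, Equiv.Perm.mul_apply, tabPerm_apply (hS g), tabPerm_apply (hTt i),
      tabPerm_apply (hTt _), hkx]
    show look (L.new ++ gensOf rest)[(g : ℕ)].1 (look L.trans[(i : ℕ)].1 x) =
      look L.trans[j].1 (app rest is x)
    rw [h2, hu']
  have hle : chainGroup N rest ≤ Subgroup.closure (Set.range Sf) :=
    hgroup ▸ chainGroup_cons_le L rest
  obtain ⟨hcard, hstab⟩ := Cfsg.Agent.Recog.PermChain.step hTmem hle hfixH ⟨⟨0, hn⟩, hzero⟩
    hinj hclosed
  refine ⟨hb, ?_, ?_, ?_, ?_⟩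
  · rw [hgroup, hcard]
  · intro g hg
    exact ⟨hstab g (hgroup ▸ hg), hfixH g⟩
  · intro is
    rcases is with - | ⟨i, is⟩
    · exact ⟨1, one_mem _, fun x => rfl⟩
    obtain ⟨k, hk, hkx⟩ := hrest is
    rcases ht : L.trans[i]? with - | t
    · exact ⟨k, chainGroup_cons_le L rest hk, fun x => by simp only [app, ht]; exact hkx x⟩
    · obtain ⟨hi, ht'⟩ := List.getElem?_eq_some_iff.mp ht
      refine ⟨Tf ⟨i, hi⟩ * k, hgroup ▸ mul_mem (hTmem _) (hle hk), fun x => ?_⟩
      simp only [app, ht]
      rw [Equiv.Perm.mul_apply, tabPerm_apply (hTt _), hkx]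
      show look L.trans[i].1 _ = _
      rw [ht']
  · intro t ht
    obtain ⟨k, hk, rfl⟩ := List.getElem_of_mem ht
    exact ⟨Tf ⟨k, hk⟩, hgroup ▸ hTmem _, tabPerm_apply (hTt ⟨k, hk⟩) _⟩

theorem chain_spec : ∀ {Ls : List Lvl}, chainOK N Ls = true →
    Nat.card (chainGroup N Ls) = (Ls.map fun L => L.trans.length).prod ∧
    (∀ g ∈ chainGroup N Ls, (∀ L ∈ Ls, ∀ x : Fin N, (x : ℕ) = L.base → g x = x) → g = 1) ∧
    ∀ is, ∃ k ∈ chainGroup N Ls, ∀ x : Fin N, (k x : ℕ) = app Ls is x
  | [], _ => by
    refine ⟨by rw [chainGroup_nil]; simp, ?_, fun is => ⟨1, one_mem _, fun x => ?_⟩⟩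
    · intro g hg _
      rw [chainGroup_nil] at hg
      exact Subgroup.mem_bot.mp hg
    · simp [app]
  | L :: rest, h => by
    have hgens := gensOf_isTab h
    rw [chainOK, Bool.and_eq_true] at h
    obtain ⟨hcard, hfix, happ⟩ := chain_spec h.2
    obtain ⟨hb, hc, hs, ha, -⟩ := levelOK_spec h.1 happ hgens
    refine ⟨by rw [hc, hcard, List.map_cons, List.prod_cons], fun g hg hall => ?_, ha⟩
    have h1 := hall L List.mem_cons_self ⟨L.base, hb⟩ rfl
    exact hfix g ((hs g hg).mp h1) fun M hM x hx => hall M (List.mem_cons_of_mem _ hM) x hx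

/-- The checks of an orbit tree: entries are a point, a generator and a parent. -/
def treeOK (gens : List Tab) (root : ℕ) (l : List (ℕ × ℕ × ℕ)) : Bool :=
  (List.range l.length).all fun i =>
    match l[i]? with
    | some (p, g, j) =>
      bif Nat.beq i 0 then Nat.beq p root
      else Nat.blt j i &&
        match gens[g]?, l[j]? with
        | some s, some (q, _) => Nat.beq p (look s.1 q)
        | _, _ => false
    | none => false

/-- Every point of a checked tree is in the orbit of the root. -/
theorem tree_orbit {Ls : List Lvl} (hgens : ∀ s ∈ gensOf Ls, isTab N s = true) {root : Fin N}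
    {l : List (ℕ × ℕ × ℕ)} (h : treeOK (gensOf Ls) root l = true) :
    ∀ x : Fin N, (x : ℕ) ∈ l.map Prod.fst → ∃ g ∈ chainGroup N Ls, g root = x := by
  suffices H : ∀ i, ∀ hi : i < l.length, ∃ g ∈ chainGroup N Ls, (g root : ℕ) = (l[i]'hi).1 by
    intro x hx
    obtain ⟨a, ha, hax⟩ := List.mem_map.mp hx
    obtain ⟨i, hi, rfl⟩ := List.getElem_of_mem ha
    obtain ⟨g, hg, hgx⟩ := H i hi
    exact ⟨g, hg, Fin.ext (hgx.trans hax)⟩
  intro i
  induction i using Nat.strong_induction_on with
  | _ i ih =>
    intro hi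
    have h1 := List.all_eq_true.mp h i (List.mem_range.mpr hi)
    rw [List.getElem?_eq_getElem hi] at h1
    rcases he : l[i] with ⟨p, g, j⟩
    simp only [he] at h1
    by_cases h0 : i = 0
    · subst h0
      simp only [show Nat.beq 0 0 = true from rfl, cond_true, Nat.beq_eq] at h1
      exact ⟨1, one_mem _, h1.symm⟩
    · rw [Bool.eq_false_iff.mpr fun e => h0 (Nat.eq_of_beq_eq_true e), cond_false, Bool.and_eq_true, Nat.blt_eq] at h1
      obtain ⟨hji, h1⟩ := h1
      rcases hs : (gensOf Ls)[g]? with - | s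
      · simp [hs] at h1
      rcases hu : l[j]? with - | ⟨q, u⟩
      · simp [hs, hu] at h1
      simp only [hs, hu, Nat.beq_eq] at h1
      obtain ⟨hg, hs'⟩ := List.getElem?_eq_some_iff.mp hs
      obtain ⟨hj, hu'⟩ := List.getElem?_eq_some_iff.mp hu
      obtain ⟨k, hk, hkr⟩ := ih j hji hj
      refine ⟨tabPerm N s * k, mul_mem (Subgroup.subset_closure ?_) hk, ?_⟩
      · exact List.mem_map.mpr ⟨s, hs' ▸ List.getElem_mem hg, rfl⟩
      · rw [Equiv.Perm.mul_apply, tabPerm_apply (hgens s (hs' ▸ List.getElem_mem hg)), hkr, hu', h1]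

/-- A generated subgroup preserves a set closed under its generators. -/
theorem chainGroup_invariant {Ls : List Lvl} (hgens : ∀ s ∈ gensOf Ls, isTab N s = true)
    {l : List ℕ} (h : (gensOf Ls).all (fun s => l.all fun x => l.contains (look s.1 x)) = true)
    {g : Equiv.Perm (Fin N)} (hg : g ∈ chainGroup N Ls) {x : Fin N} (hx : (x : ℕ) ∈ l) :
    (g x : ℕ) ∈ l := by
  rw [chainGroup, ← Subgroup.mem_toSubmonoid, Subgroup.closure_toSubmonoid_of_finite] at hg
  induction hg using Submonoid.closure_induction_left with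
  | one => exact hx
  | mul_left p hp k _ ih =>
    simp only [Set.mem_setOf_eq, List.mem_map] at hp
    obtain ⟨s, hs, rfl⟩ := hp
    rw [Equiv.Perm.mul_apply, tabPerm_apply (hgens s hs)]
    have h1 := List.all_eq_true.mp (List.all_eq_true.mp h s hs) _ ih
    simpa using h1

end Cfsg.Agent.J2
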