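import Cfsg.Agent.J2.Data
import Cfsg.Prelude.Def_Sporadic
import Cfsg.Agent.J2.Criteria
import Cfsg.Agent.Sharply.SimpleCrit

/-!
The Hall-Janko group as a permutation group on 100 points: order 604800, point stabiliser simple
of order 6048, suborbits 1, 36, 63, and simplicity.
-/

set_option autoImplicit false
set_option maxRecDepth 100000

namespace Cfsg.Agent.J2

open MulAction

/-- The chain below the first point. -/
def chain1 : List Lvl := [lvl1, lvl2, lvl3]

/-- The chain below the first two points. -/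
def chain2 : List Lvl := [lvl2, lvl3]

theorem chain_eq : chain = lvl0 :: chain1 := rfl

theorem level3_ok : levelOK 100 lvl3 [] = true := by decide +kernel
theorem level2_ok : levelOK 100 lvl2 [lvl3] = true := by decide +kernel
theorem level1_ok : levelOK 100 lvl1 chain2 = true := by decide +kernel
theorem level0_ok : levelOK 100 lvl0 chain1 = true := by decide +kernel

theorem chain2_ok : chainOK 100 chain2 = true := by
  simp [chain2, chainOK, level2_ok, level3_ok]

theorem chain1_ok : chainOK 100 chain1 = true := by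
  show (levelOK 100 lvl1 chain2 && chainOK 100 chain2) = true
  rw [level1_ok, chain2_ok]; rfl

theorem chain_ok : chainOK 100 chain = true := by
  rw [chain_eq]
  show (levelOK 100 lvl0 chain1 && chainOK 100 chain1) = true
  rw [level0_ok, chain1_ok]; rfl

theorem data_sizes : lvl0.trans.length = 100 ∧ lvl1.trans.length = 63 ∧ lvl2.trans.length = 32 ∧
    lvl3.trans.length = 3 ∧ lvl0.base = 0 ∧ lvl1.base = 1 := by decide +kernel

/-- The points of the two nontrivial suborbits. -/
def pts36 : List ℕ := tree36.map Prod.fst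

/-- The points of the larger suborbit. -/
def pts63 : List ℕ := tree63.map Prod.fst

/-- The root of the smaller suborbit. -/
def root36 : ℕ := pts36.headI

theorem orbit_facts :
    treeOK (gensOf chain1) root36 tree36 = true ∧ treeOK (gensOf chain1) 1 tree63 = true ∧
    (gensOf chain1).all (fun s => pts36.all fun x => pts36.contains (look s.1 x)) = true ∧
    (gensOf chain1).all (fun s => pts63.all fun x => pts63.contains (look s.1 x)) = true ∧
    pts36.length = 36 ∧ pts63.length = 63 := by decide +kernel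

theorem partition_facts :
    (List.range 100).all (fun x => Nat.beq x 0 || pts36.contains x || pts63.contains x) = true ∧
    pts36.Nodup ∧ pts63.Nodup ∧ pts36.all (fun x => Nat.blt x 100 && !(Nat.beq x 0)) = true ∧
    pts63.all (fun x => Nat.blt x 100 && !(Nat.beq x 0)) = true ∧
    pts36.all (fun x => !(pts63.contains x)) = true ∧
    chain1.all (fun L => pts63.contains L.base) = true ∧
    (List.range 100).all (fun x => (lvl0.trans.map fun t => look t.1 0).contains x) = true := by
  decide +kernel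

/-- The three suborbit trees on the larger suborbit. -/
def subTree : Fin 3 → List (ℕ × ℕ × ℕ) := ![tree6, tree24, tree32]

/-- Their points. -/
def subPts (i : Fin 3) : List ℕ := (subTree i).map Prod.fst

theorem sub_facts :
    (∀ i, treeOK (gensOf chain2) (subPts i).headI (subTree i) = true) ∧
    (∀ i, (subPts i).Nodup) ∧ (subPts 0).length = 6 ∧ (subPts 1).length = 24 ∧
    (subPts 2).length = 32 ∧
    (∀ i, (subPts i).all (fun x => Nat.blt x 100 && !(Nat.beq x 1)) = true) ∧
    (∀ i j, i ≠ j → (subPts i).all (fun x => !((subPts j).contains x)) = true) ∧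
    pts63.all (fun x => Nat.beq x 1 || (subPts 0).contains x || (subPts 1).contains x ||
      (subPts 2).contains x) = true := by decide +kernel

/-- Iterate of a product of transversal elements. -/
def iter (f : ℕ → ℕ) : ℕ → ℕ → ℕ
  | 0, x => x
  | n + 1, x => f (iter f n x)

theorem seven_facts :
    (List.range 100).all (fun x => Nat.beq (iter (app chain1 sevenA) 7 x) x) = true ∧
    (List.range 100).all (fun x => Nat.beq (iter (app chain1 sevenB) 7 x) x) = true ∧
    app chain1 sevenA root36 = root36 ∧ app chain1 sevenB root36 = root36 ∧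
    pts36.all (fun x => Nat.beq x root36 || !(Nat.beq (app chain1 sevenA x) x)) = true ∧
    (List.range 100).any (fun x => !(Nat.beq (app chain1 sevenA x) x)) = true ∧
    (List.range 100).any (fun x => !(Nat.beq (app chain1 sevenB x) x)) = true ∧
    (List.range 100).any (fun x => !(Nat.beq (app chain1 sevenA (app chain1 sevenB x))
      (app chain1 sevenB (app chain1 sevenA x)))) = true := by decide +kernel

/-- The Hall-Janko group. -/
def hallJanko : Subgroup (Equiv.Perm (Fin 100)) := chainGroup 100 chain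

/-- The point stabiliser. -/
def hjStab : Subgroup (Equiv.Perm (Fin 100)) := chainGroup 100 chain1

theorem hjStab_le : hjStab ≤ hallJanko := chainGroup_cons_le lvl0 chain1

theorem card_hallJanko : Nat.card hallJanko = 604800 := by
  rw [hallJanko, (chain_spec chain_ok).1, chain_eq, chain1]
  simp [data_sizes]

theorem card_hjStab : Nat.card hjStab = 6048 := by
  rw [hjStab, (chain_spec chain1_ok).1, chain1]
  simp [data_sizes]

theorem level0_spec : ∀ g ∈ hallJanko, (g 0 = 0 ↔ g ∈ hjStab) := by
  obtain ⟨hb, -, h, -, -⟩ := levelOK_spec (L := lvl0) level0_ok (chain_spec chain1_ok).2.2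
    (gensOf_isTab chain_ok)
  intro g hg
  have e : (⟨lvl0.base, hb⟩ : Fin 100) = 0 := Fin.ext data_sizes.2.2.2.2.1
  have := h g hg
  rwa [e] at this

theorem hallJanko_transitive (x : Fin 100) : ∃ g ∈ hallJanko, g 0 = x := by
  obtain ⟨hb, -, -, -, h⟩ := levelOK_spec (L := lvl0) level0_ok (chain_spec chain1_ok).2.2
    (gensOf_isTab chain_ok)
  have e : (⟨lvl0.base, hb⟩ : Fin 100) = 0 := Fin.ext data_sizes.2.2.2.2.1
  have h1 := List.all_eq_true.mp partition_facts.2.2.2.2.2.2.2 x (List.mem_range.mpr x.2)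
  rw [List.contains_iff_mem] at h1
  obtain ⟨t, ht, htx⟩ := List.mem_map.mp h1
  obtain ⟨g, hg, hgx⟩ := h t ht
  rw [e, data_sizes.2.2.2.2.1, htx] at hgx
  exact ⟨g, hg, Fin.ext hgx⟩

theorem level1_spec : ∀ g ∈ hjStab, (g 1 = 1 ↔ g ∈ chainGroup 100 chain2) := by
  obtain ⟨hb, -, h, -, -⟩ := levelOK_spec (L := lvl1) level1_ok (chain_spec chain2_ok).2.2
    (gensOf_isTab chain1_ok)
  intro g hg
  have e : (⟨lvl1.base, hb⟩ : Fin 100) = 1 := Fin.ext data_sizes.2.2.2.2.2
  have := h g hg
  rwa [e] at this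

/-- A set of points from a list. -/
def ptSet (l : List ℕ) : Finset (Fin 100) := Finset.univ.filter fun x => (x : ℕ) ∈ l

theorem mem_ptSet {l : List ℕ} {x : Fin 100} : x ∈ ptSet l ↔ (x : ℕ) ∈ l := by simp [ptSet]

theorem card_ptSet {l : List ℕ} (hn : l.Nodup) (hl : ∀ x ∈ l, x < 100) :
    (ptSet l).card = l.length := by
  rw [← List.toFinset_card_of_nodup hn, ← Finset.card_map Fin.valEmbedding]
  congr 1
  ext x
  simp only [Finset.mem_map, mem_ptSet, List.mem_toFinset, Fin.valEmbedding_apply]
  exact ⟨fun ⟨y, hy, e⟩ => e ▸ hy, fun hx => ⟨⟨x, hl x hx⟩, hx, rfl⟩⟩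

theorem ne_of_beq {a b : ℕ} (h : Nat.beq a b = false) : a ≠ b := fun e =>
  Bool.eq_false_iff.mp h (by rw [Nat.beq_eq]; exact e)

theorem mem63_lt {x : ℕ} (hx : x ∈ pts63) : x < 100 ∧ x ≠ 0 := by
  have := List.all_eq_true.mp partition_facts.2.2.2.2.1 x hx
  simp only [Bool.and_eq_true, Nat.blt_eq, Bool.not_eq_true'] at this
  exact ⟨this.1, ne_of_beq this.2⟩

theorem mem36_lt {x : ℕ} (hx : x ∈ pts36) : x < 100 ∧ x ≠ 0 := by
  have := List.all_eq_true.mp partition_facts.2.2.2.1 x hx
  simp only [Bool.and_eq_true, Nat.blt_eq, Bool.not_eq_true'] at this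
  exact ⟨this.1, ne_of_beq this.2⟩

/-- Points in one checked orbit tree are moved to one another. -/
theorem orbit_of_tree {Ls : List Lvl} (hok : chainOK 100 Ls = true) {root : ℕ}
    {l : List (ℕ × ℕ × ℕ)} (hroot : root < 100) (h : treeOK (gensOf Ls) root l = true)
    {x y : Fin 100} (hx : (x : ℕ) ∈ l.map Prod.fst) (hy : (y : ℕ) ∈ l.map Prod.fst) :
    ∃ g ∈ chainGroup 100 Ls, g x = y := by
  obtain ⟨g, hg, hgx⟩ := tree_orbit (root := ⟨root, hroot⟩) (gensOf_isTab hok) h x hx
  obtain ⟨k, hk, hky⟩ := tree_orbit (root := ⟨root, hroot⟩) (gensOf_isTab hok) h y hy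
  refine ⟨k * g⁻¹, mul_mem hk (inv_mem hg), ?_⟩
  rw [Equiv.Perm.mul_apply, ← hgx, Equiv.Perm.inv_def, Equiv.symm_apply_apply, hky]

theorem root36_mem : root36 ∈ pts36 := by decide +kernel

theorem one_mem63 : (1 : ℕ) ∈ pts63 := by decide +kernel

theorem sub_root_lt : ∀ i, (subPts i).headI < 100 := by decide +kernel

theorem simple_hjStab : IsSimpleGroup hjStab := by
  have : Fact (Nat.Prime 7) := ⟨by norm_num⟩
  have hcard := card_hjStab
  have hinv63 : ∀ g : hjStab, ∀ x : Fin 100, (x : ℕ) ∈ pts63 → (g.1 x : ℕ) ∈ pts63 := fun g x hx =>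
    chainGroup_invariant (gensOf_isTab chain1_ok) orbit_facts.2.2.2.1 g.2 hx
  have hinv36 : ∀ g : hjStab, ∀ x : Fin 100, (x : ℕ) ∈ pts36 → (g.1 x : ℕ) ∈ pts36 := fun g x hx =>
    chainGroup_invariant (gensOf_isTab chain1_ok) orbit_facts.2.2.1 g.2 hx
  refine Cfsg.Agent.Sharply.isSimpleGroup_of_normalizer_card (p := 7) (q := 3) (by norm_num)
    (by norm_num) (by rw [hcard]; norm_num) (by rw [hcard]; norm_num) ?_ ?_
  · intro N hN hNb
    obtain ⟨n, hn, hn1⟩ := exists_moves (a := (1 : Fin 100)) (X := {x : Fin 100 | (x : ℕ) ∈ pts63}) hN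
      (fun x hx => by
        obtain ⟨g, hg, hgx⟩ := orbit_of_tree chain1_ok (by norm_num) orbit_facts.2.1
          (x := 1) (y := x) one_mem63 hx
        exact ⟨⟨g, hg⟩, hgx⟩)
      (fun g hg => by
        refine Subtype.ext ((chain_spec chain1_ok).2.1 g.1 g.2 fun L hL x hx => hg x ?_)
        show (x : ℕ) ∈ pts63
        rw [hx]
        simpa using List.all_eq_true.mp partition_facts.2.2.2.2.2.2.1 L hL) hNb
    obtain ⟨T, hT⟩ := ncard_orbit_eq_sum (k := 3) hN (a := (1 : Fin 100)) (fun i => ptSet (subPts i))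
      (fun i x hx y hy => by
        obtain ⟨g, hg, hgx⟩ := orbit_of_tree chain2_ok (sub_root_lt i) (sub_facts.1 i)
          (mem_ptSet.mp hx) (mem_ptSet.mp hy)
        have hg1 : g ∈ hjStab := chainGroup_cons_le lvl1 chain2 hg
        exact ⟨⟨g, hg1⟩, (level1_spec g hg1).mpr hg, hgx⟩)
      (fun i h => by
        have := List.all_eq_true.mp (sub_facts.2.2.2.2.2.1 i) _ (mem_ptSet.mp h)
        simp at this)
      (fun i j hij => Finset.disjoint_left.mpr fun x hi hj => by
        have h1 := List.all_eq_true.mp (sub_facts.2.2.2.2.2.2.1 i j hij) _ (mem_ptSet.mp hi)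
        rw [mem_ptSet] at hj
        simp [hj] at h1)
      (fun m _ => by
        have h1 := List.all_eq_true.mp sub_facts.2.2.2.2.2.2.2 _ (hinv63 m 1 one_mem63)
        simp only [Bool.or_eq_true, Nat.beq_eq, List.contains_iff_mem] at h1
        rcases h1 with ((h1 | h1) | h1) | h1
        · exact Or.inl (Fin.ext h1)
        · exact Or.inr ⟨0, mem_ptSet.mpr h1⟩
        · exact Or.inr ⟨1, mem_ptSet.mpr h1⟩
        · exact Or.inr ⟨2, mem_ptSet.mpr h1⟩)
    have hne : (orbit N (1 : Fin 100)).ncard ≠ 1 := by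
      intro h1
      obtain ⟨y, hy⟩ := Set.ncard_eq_one.mp h1
      have e1 : (1 : Fin 100) ∈ ({y} : Set (Fin 100)) := hy ▸ mem_orbit_self _
      have e2 : n • (1 : Fin 100) ∈ ({y} : Set (Fin 100)) := hy ▸ (⟨⟨n, hn⟩, rfl⟩ : n • (1 : Fin 100) ∈ orbit N (1 : Fin 100))
      rw [Set.mem_singleton_iff] at e1 e2
      exact hn1 (e2.trans e1.symm)
    have hdN := ncard_orbit_dvd N (1 : Fin 100)
    have hdG : (orbit N (1 : Fin 100)).ncard ∣ 6048 :=
      hcard ▸ hdN.trans (Subgroup.card_subgroup_dvd_card N)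
    have hc : ∀ i, (ptSet (subPts i)).card = (subPts i).length := fun i =>
      card_ptSet (sub_facts.2.1 i) fun x hx => by
        have := List.all_eq_true.mp (sub_facts.2.2.2.2.2.1 i) x hx
        simp at this; exact this.1
    simp only [hc] at hT
    refine dvd_trans ?_ hdN
    rw [hT] at hne hdG ⊢
    have key : ∀ T : Finset (Fin 3), 1 + ∑ i ∈ T, (subPts i).length ≠ 1 →
        1 + ∑ i ∈ T, (subPts i).length ∣ 6048 → 7 ∣ 1 + ∑ i ∈ T, (subPts i).length := by
      decide +kernel
    exact key T hne hdG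
  · intro P
    let r : Fin 100 := ⟨root36, (mem36_lt root36_mem).1⟩
    obtain ⟨sa, hsa, hsax⟩ := (chain_spec chain1_ok).2.2 sevenA
    obtain ⟨sb, hsb, hsbx⟩ := (chain_spec chain1_ok).2.2 sevenB
    have hord : ∀ (is : List ℕ) (k : Equiv.Perm (Fin 100)) (hk : k ∈ hjStab),
        (∀ x : Fin 100, (k x : ℕ) = app chain1 is x) →
        (List.range 100).all (fun x => Nat.beq (iter (app chain1 is) 7 x) x) = true →
        (List.range 100).any (fun x => !(Nat.beq (app chain1 is x) x)) = true →
        orderOf (⟨k, hk⟩ : hjStab) = 7 := by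
      intro is k hk hkx h7 hne
      rw [← Subgroup.orderOf_coe]
      refine orderOf_eq_prime ?_ ?_
      · have hit : ∀ n : ℕ, ∀ x : Fin 100, ((k ^ n) x : ℕ) = iter (app chain1 is) n x := by
          intro n
          induction n with
          | zero => intro x; rfl
          | succ n ih => intro x; rw [pow_succ', Equiv.Perm.mul_apply, hkx, ih]; rfl
        refine Equiv.ext fun x => Fin.ext ?_
        rw [hit]
        exact Nat.eq_of_beq_eq_true (List.all_eq_true.mp h7 x (List.mem_range.mpr x.2))
      · intro h1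
        obtain ⟨x, hx, hxne⟩ := List.any_eq_true.mp hne
        rw [List.mem_range] at hx
        have := hkx ⟨x, hx⟩
        change (k : Equiv.Perm (Fin 100)) = 1 at h1
        rw [h1] at this
        simp at hxne
        exact ne_of_beq hxne this.symm
    have hrx : sa r = r := Fin.ext ((hsax r).trans seven_facts.2.2.1)
    have hrb : sb r = r := Fin.ext ((hsbx r).trans seven_facts.2.2.2.1)
    have horb : orbit hjStab r = ↑(ptSet pts36) := by
      ext x
      rw [Finset.mem_coe, mem_ptSet]
      constructor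
      · rintro ⟨g, rfl⟩
        exact hinv36 g r root36_mem
      · intro hx
        obtain ⟨g, hg, hgx⟩ := orbit_of_tree chain1_ok r.2 orbit_facts.1 (x := r) root36_mem hx
        exact ⟨⟨g, hg⟩, hgx⟩
    have hstab : Nat.card (stabilizer hjStab r) = 7 * 24 := by
      have h1 := Subgroup.card_mul_index (stabilizer hjStab r)
      rw [index_stabilizer, horb, Set.ncard_coe_finset,
        card_ptSet partition_facts.2.1 (fun x hx => (mem36_lt hx).1), orbit_facts.2.2.2.2.1, hcard] at h1
      omega
    have hnorm := normalizer_zpowers_le_stabilizer (s := (⟨sa, hsa⟩ : hjStab)) (a := r)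
      (X := {x : Fin 100 | (x : ℕ) ∈ pts36}) (fun g => hinv36 g r root36_mem) hrx
      (fun x hx hfix => by
        have h1 := List.all_eq_true.mp seven_facts.2.2.2.2.1 (x : ℕ) hx
        have h2 : app chain1 sevenA x = x := (hsax x).symm.trans (congrArg Fin.val hfix)
        simp [h2] at h1
        exact Fin.ext h1)
    have h21 := card_normalizer_sylow (p := 7) (n := 24) (d := 8) (⟨sa, hsa⟩ : hjStab) hrx
      (hord sevenA sa hsa hsax seven_facts.1 seven_facts.2.2.2.2.2.1) hnorm
      (by rw [hcard]; norm_num) hstab (t := ⟨sb, hsb⟩) hrb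
      (hord sevenB sb hsb hsbx seven_facts.2.1 seven_facts.2.2.2.2.2.2.1)
      (fun e => by
        obtain ⟨x, hx, hxne⟩ := List.any_eq_true.mp seven_facts.2.2.2.2.2.2.2
        rw [List.mem_range] at hx
        have h1 := congrArg Fin.val (congrArg (fun g : hjStab => g.1 ⟨x, hx⟩) e)
        simp only [Subgroup.coe_mul, Equiv.Perm.mul_apply] at h1
        rw [hsax, hsbx, hsbx, hsax] at h1
        simp at hxne
        exact ne_of_beq hxne h1)
      (fun e he h1 hne => by
        have := Nat.le_of_dvd (by norm_num) he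
        interval_cases e <;> first | rfl | (exfalso; omega) | (exfalso; revert he; decide))
      P
    omega

theorem simple_hallJanko : IsSimpleGroup hallJanko := by
  have hcard := card_hallJanko
  have : Nontrivial hallJanko := Finite.one_lt_card_iff_nontrivial.mp (by rw [hcard]; norm_num)
  have : IsPretransitive hallJanko (Fin 100) := (isPretransitive_iff_base 0).mpr fun x => by
    obtain ⟨g, hg, hgx⟩ := hallJanko_transitive x
    exact ⟨⟨g, hg⟩, hgx⟩
  have hsimp : IsSimpleGroup (stabilizer hallJanko (0 : Fin 100)) := by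
    let m : hjStab →* stabilizer hallJanko (0 : Fin 100) :=
      { toFun := fun g => ⟨⟨g.1, hjStab_le g.2⟩, (level0_spec g.1 (hjStab_le g.2)).mpr g.2⟩
        map_one' := rfl
        map_mul' := fun g h => rfl }
    have hm : Function.Bijective m := by
      refine ⟨fun g h e => Subtype.ext (congrArg (fun t : stabilizer hallJanko (0 : Fin 100) => t.1.1) e),
        fun s => ⟨⟨s.1.1, (level0_spec s.1.1 s.1.2).mp s.2⟩, rfl⟩⟩
    exact (MulEquiv.isSimpleGroup_congr (MulEquiv.ofBijective m hm)).mp simple_hjStab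
  refine isSimpleGroup_of_transitive_normals (p := 5) (m := 4) (by norm_num) (by norm_num)
    (by norm_num) (fun d hd h1 => by
      have := Nat.le_of_dvd (by norm_num) hd
      interval_cases d <;> omega) (0 : Fin 100) (by rw [Nat.card_fin]; norm_num) hsimp ?_
  intro N hN hNb x
  have := hN
  obtain ⟨n, hn, hn0⟩ := exists_moves (a := (0 : Fin 100)) (X := Set.univ) hN
    (fun y _ => exists_smul_eq hallJanko 0 y)
    (fun g hg => Subtype.ext (Equiv.ext fun y => hg y trivial)) hNb
  obtain ⟨T, hT⟩ := ncard_orbit_eq_sum (k := 2) hN (a := (0 : Fin 100))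
    (fun i => ptSet (![pts36, pts63] i))
    (fun i y hy z hz => by
      have h : ∃ g ∈ hjStab, g y = z := by
        fin_cases i
        · exact orbit_of_tree chain1_ok (mem36_lt root36_mem).1 orbit_facts.1 (mem_ptSet.mp hy) (mem_ptSet.mp hz)
        · exact orbit_of_tree chain1_ok (by norm_num) orbit_facts.2.1 (mem_ptSet.mp hy) (mem_ptSet.mp hz)
      obtain ⟨g, hg, hgy⟩ := h
      exact ⟨⟨g, hjStab_le hg⟩, (level0_spec g (hjStab_le hg)).mpr hg, hgy⟩)
    (fun i h => by
      rw [mem_ptSet] at h
      fin_cases i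
      · exact (mem36_lt h).2 rfl
      · exact (mem63_lt h).2 rfl)
    (fun i j hij => Finset.disjoint_left.mpr fun y hi hj => by
      rw [mem_ptSet] at hi hj
      have hkey : ∀ z ∈ pts36, z ∉ pts63 := fun z hz => by
        simpa using List.all_eq_true.mp partition_facts.2.2.2.2.2.1 z hz
      fin_cases i <;> fin_cases j
      · exact hij rfl
      · exact hkey _ hi hj
      · exact hkey _ hj hi
      · exact hij rfl)
    (fun m _ => by
      have h1 := List.all_eq_true.mp partition_facts.1 ((m • (0 : Fin 100) : Fin 100) : ℕ)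
        (List.mem_range.mpr (m • (0 : Fin 100)).2)
      simp only [Bool.or_eq_true, Nat.beq_eq, List.contains_iff_mem] at h1
      rcases h1 with (h1 | h1) | h1
      · exact Or.inl (Fin.ext h1)
      · exact Or.inr ⟨0, mem_ptSet.mpr h1⟩
      · exact Or.inr ⟨1, mem_ptSet.mpr h1⟩)
  have hdvd : (orbit N (0 : Fin 100)).ncard ∣ 100 := by
    have h1 := (MulAction.IsBlock.orbit_of_normal (N := N) (0 : Fin 100)).ncard_dvd_card
      ⟨0, mem_orbit_self _⟩
    rwa [Nat.card_fin] at h1
  have hc : ∀ i : Fin 2, (ptSet (![pts36, pts63] i)).card = ![36, 63] i := by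
    intro i
    fin_cases i
    · exact (card_ptSet partition_facts.2.1 (fun y hy => (mem36_lt hy).1)).trans orbit_facts.2.2.2.2.1
    · exact (card_ptSet partition_facts.2.2.1 (fun y hy => (mem63_lt hy).1)).trans orbit_facts.2.2.2.2.2
  simp only [hc] at hT
  have hne : (orbit N (0 : Fin 100)).ncard ≠ 1 := by
    intro h1
    obtain ⟨y, hy⟩ := Set.ncard_eq_one.mp h1
    have e1 : (0 : Fin 100) ∈ ({y} : Set (Fin 100)) := hy ▸ mem_orbit_self _
    have e2 : n • (0 : Fin 100) ∈ ({y} : Set (Fin 100)) := hy ▸ (⟨⟨n, hn⟩, rfl⟩ : n • (0 : Fin 100) ∈ orbit N (0 : Fin 100))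
    rw [Set.mem_singleton_iff] at e1 e2
    exact hn0 (e2.trans e1.symm)
  have huniv : orbit N (0 : Fin 100) = Set.univ := by
    apply Set.eq_of_subset_of_ncard_le (Set.subset_univ _)
    rw [Set.ncard_univ, Nat.card_fin]
    rw [hT] at hne hdvd ⊢
    have key : ∀ T : Finset (Fin 2), 1 + ∑ i ∈ T, ![36, 63] i ≠ 1 →
        1 + ∑ i ∈ T, ![36, 63] i ∣ 100 → 100 ≤ 1 + ∑ i ∈ T, ![36, 63] i := by decide
    exact key T hne hdvd
  obtain ⟨m, hm⟩ : x ∈ orbit N (0 : Fin 100) := by rw [huniv]; trivial
  exact ⟨m.1, m.2, hm⟩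

/-- The Hall-Janko group on 100 points is of type J2. -/
theorem isJ2_hallJanko : Cfsg.IsJ2 hallJanko := ⟨simple_hallJanko, card_hallJanko⟩

end Cfsg.Agent.J2
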